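import Cfsg.Agent.Lib.Chev.Twisted.Base
import Cfsg.Prelude.Def_ChevAutomorphisms

/-! Generation of the Chevalley groups by the monomial subgroup and one or two root subgroups. -/

set_option autoImplicit false

open Cfsg.Lie
open CfsgLib.Chev CfsgLib.Chev.Checks CfsgLib.Chev.Basic

namespace CfsgLib.Chev.MonoGen

/-- one step between fundamental roots of equal length -/
def link (D : ChevalleyDatum) (a b : ℕ) : Bool :=
  [a, b].foldr (fun i s => D.reflectRoot i s) (D.simple a) == D.simple b

/-- fundamental roots reached from `i` -/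
def reach (D : ChevalleyDatum) : ℕ → List ℕ → List ℕ
  | 0, L => L
  | n + 1, L => reach D n ((List.range D.rank).filter fun b => L.contains b || L.any fun a => link D a b)

/-- the short fundamental roots form one class, and each long one is a commutator of two short roots -/
def shortOK (D : ChevalleyDatum) (p : ℕ) : Bool :=
  ((List.range D.rank).all fun i => (D.isLong (D.simple i)) || (List.range D.rank).all fun a =>
    D.isLong (D.simple a) || (reach D D.rank [i]).contains a) &&
  ((List.range D.rank).all fun a => !D.isLong (D.simple a) ||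
    (List.range D.nroots).any fun u => !D.isLong u && (List.range D.nroots).any fun v =>
      !D.isLong v && v != u && v != D.neg u &&
        match D.commTerms u v with
        | [(r, c, j, k)] => r == D.simple a && j == 1 && k == 1 && (c.natAbs == 1 || c.natAbs == p)
        | _ => false) &&
  (((List.range D.rank).all fun a => !D.isLong (D.simple a)) ||
    (List.range D.rank).all fun i => (List.range D.nroots).all fun r => D.isLong (D.reflectRoot i r) == D.isLong r)

/-- the long fundamental roots form one class as well -/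
def bothOK (D : ChevalleyDatum) : Bool :=
  ((List.range D.rank).all fun i => (List.range D.rank).all fun a =>
    (D.isLong (D.simple i)) != (D.isLong (D.simple a)) || (reach D D.rank [i]).contains a)

variable {D : ChevalleyDatum} {F : Type*} [Field F]

theorem mem_of_reach (hD : D ∈ dataList) {M : Subgroup (GL D.Idx F)} (hN : D.monomialSubgroup F ≤ M) :
    ∀ (n : ℕ) (L : List ℕ), (∀ a ∈ L, a < D.rank ∧ ∀ t, xGL hD F (D.simple a) t ∈ M) →
      ∀ a ∈ reach D n L, a < D.rank ∧ ∀ t, xGL hD F (D.simple a) t ∈ M
  | 0, L, h, a, ha => h a ha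
  | n + 1, L, h, a, ha => by
    refine mem_of_reach hD hN n _ (fun b hb => ?_) a ha
    simp only [List.mem_filter, List.mem_range, Bool.or_eq_true, List.any_eq_true, List.contains_iff_mem] at hb
    refine ⟨hb.1, ?_⟩
    rcases hb.2 with hb' | ⟨c, hc, hl⟩
    · exact (h b hb').2
    · obtain ⟨hcl, hcM⟩ := h c hc
      simp only [link, beq_iff_eq] at hl
      have hw : ∀ i ∈ [c, b], i < D.rank := by
        intro i hi
        simp only [List.mem_cons, List.not_mem_nil, or_false] at hi
        rcases hi with rfl | rfl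
        exacts [hcl, hb.1]
      obtain ⟨η, hη, hconj⟩ := N.nW_conj (F := F) hD hw (Rel.simple_lt hD hcl)
      intro t
      have hn : N.nW hD F [c, b] ∈ M := hN (N.nW_mem hD hw)
      have := mul_mem (mul_mem hn (hcM ((η : F) * t))) (inv_mem hn)
      rw [hconj, show N.act D [c, b] (D.simple c) = D.simple b from hl] at this
      rcases hη with rfl | rfl <;> simpa using this

/-- closed under reflections: from fundamental roots to all roots -/
theorem all_roots (hD : D ∈ dataList) {M : Subgroup (GL D.Idx F)} (hN : D.monomialSubgroup F ≤ M) (Q : ℕ → Prop)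
    (hQ : ∀ i r, i < D.rank → r < D.nroots → Q r → Q (D.reflectRoot i r))
    (h : ∀ a < D.rank, Q (D.simple a) → ∀ t, xGL hD F (D.simple a) t ∈ M) :
    ∀ r < D.nroots, Q r → ∀ t, xGL hD F r t ∈ M := by
  intro r hr
  refine Rel.root_induction hD (P := fun r => Q r → ∀ t, xGL hD F r t ∈ M) h (fun i r hi hr ih hq t => ?_) hr
  have hw : ∀ j ∈ [i], j < D.rank := by simpa using hi
  obtain ⟨η, -, hconj⟩ := N.nW_conj (F := F) hD hw hr
  have hn : N.nW hD F [i] ∈ M := hN (N.nW_mem hD hw)
  have := mul_mem (mul_mem (inv_mem hn) (ih (hQ i r hi hr hq) ((η : F) * t))) hn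
  rwa [← show N.act D [i] r = D.reflectRoot i r from rfl, ← hconj,
    show (N.nW hD F [i])⁻¹ * (N.nW hD F [i] * xGL hD F r t * (N.nW hD F [i])⁻¹) * N.nW hD F [i] = xGL hD F r t by
      group] at this

theorem group_le_of_roots (hD : D ∈ dataList) {M : Subgroup (GL D.Idx F)}
    (h : ∀ r < D.nroots, ∀ t, xGL hD F r t ∈ M) : D.group F ≤ M := by
  refine (Subgroup.closure_le _).2 ?_
  rintro g ⟨⟨r, hr⟩, t, hg⟩
  have e : g = xGL hD F r t := Units.ext (by rw [hg, xGL_val, x_of_lt hr])
  rw [e]; exact h r hr t

theorem root_mem (hD : D ∈ dataList) {r : ℕ} (hr : r < D.nroots) (t : F) : xGL hD F r t ∈ D.rootSubgroup F r :=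
  (Rel.mem_rootSubgroup hD hr).2 ⟨t, rfl⟩

theorem short (hD : D ∈ dataList) (p : ℕ) (hp : (p : F) ≠ 0) (hok : shortOK D p = true)
    {i : ℕ} (hi : i < D.rank) (hs : D.isLong (D.simple i) = false) :
    D.group F ≤ D.monomialSubgroup F ⊔ D.rootSubgroup F (D.simple i) := by
  simp only [shortOK, Bool.and_eq_true, List.all_eq_true, List.mem_range, Bool.or_eq_true, beq_iff_eq,
    Bool.not_eq_true', List.contains_iff_mem, List.any_eq_true, bne_iff_ne] at hok
  obtain ⟨⟨h1, h2⟩, h3⟩ := hok
  set M := D.monomialSubgroup F ⊔ D.rootSubgroup F (D.simple i)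
  have hN : D.monomialSubgroup F ≤ M := le_sup_left
  have hsimple : ∀ a < D.rank, D.isLong (D.simple a) = false → ∀ t, xGL hD F (D.simple a) t ∈ M := fun a ha hq t => by
    have hr := ((h1 i hi).resolve_left (by simp [hs]) a ha).resolve_left (by simp [hq])
    exact (mem_of_reach hD hN D.rank [i] (fun b hb => by
      rw [List.mem_singleton] at hb; subst hb
      exact ⟨hi, fun t => Subgroup.mem_sup_right (root_mem hD (Rel.simple_lt hD hi) t)⟩) a hr).2 t
  have hshort : ∀ r < D.nroots, D.isLong r = false → ∀ t, xGL hD F r t ∈ M := by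
    rcases h3 with h4 | h4
    · exact fun r hr _ => all_roots hD hN (fun _ => True) (fun _ _ _ _ _ => trivial)
        (fun a ha _ => hsimple a ha (h4 a ha)) r hr trivial
    · exact all_roots hD hN _ (fun j r hj hr hq => (h4 j hj r hr).trans hq) hsimple
  refine group_le_of_roots hD fun r hr => all_roots hD hN (fun _ => True) (fun _ _ _ _ _ => trivial) (fun a ha _ t => ?_)
    r hr trivial
  by_cases hl : D.isLong (D.simple a) = false
  · exact hshort _ (Rel.simple_lt hD ha) hl t
  obtain ⟨u, hu, hus, v, hv, ⟨⟨hvs, hne⟩, hneg⟩, hm⟩ := (h2 a ha).resolve_left hl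
  split at hm
  · rename_i r' c j k heq
    simp only [Bool.and_eq_true, beq_iff_eq, Bool.or_eq_true] at hm
    obtain ⟨⟨⟨rfl, rfl⟩, rfl⟩, hc⟩ := hm
    have hc' : (c : F) ≠ 0 := by
      rcases Int.natAbs_eq c with e | e <;> rcases hc with hc | hc <;> rw [e, hc] <;> simp [hp]
    have e := Rel.comm_GL (F := F) hD hu hv hne hneg (-(t / (c : F))) 1
    rw [Rel.wordGL, ChevalleyDatum.commWord, heq] at e
    simp only [List.map_cons, List.map_nil, List.prod_cons, List.prod_nil, mul_one, pow_one, neg_neg,
      mul_div_cancel₀ _ hc'] at e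
    rw [← inv_mul_eq_iff_eq_mul] at e
    rw [← e]
    exact mul_mem (inv_mem (mul_mem (hshort u hu hus _) (hshort v hv hvs _)))
      (mul_mem (hshort v hv hvs _) (hshort u hu hus _))
  · cases hm

theorem both (hD : D ∈ dataList) (hok : bothOK D = true) {i j : ℕ} (hi : i < D.rank) (hj : j < D.rank)
    (hs : D.isLong (D.simple i) = false) (hl : D.isLong (D.simple j) = true) :
    D.group F ≤ D.monomialSubgroup F ⊔ D.rootSubgroup F (D.simple i) ⊔ D.rootSubgroup F (D.simple j) := by
  simp only [bothOK, List.all_eq_true, List.mem_range, Bool.or_eq_true, bne_iff_ne, List.contains_iff_mem] at hok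
  set M := D.monomialSubgroup F ⊔ D.rootSubgroup F (D.simple i) ⊔ D.rootSubgroup F (D.simple j)
  have hN : D.monomialSubgroup F ≤ M := le_sup_left.trans le_sup_left
  refine group_le_of_roots hD fun r hr => all_roots hD hN (fun _ => True) (fun _ _ _ _ _ => trivial) (fun a ha _ t => ?_)
    r hr trivial
  cases hla : D.isLong (D.simple a)
  · refine (mem_of_reach hD hN D.rank [i] (fun b hb => ?_) a ((hok i hi a ha).resolve_left (by simp [hs, hla]))).2 t
    rw [List.mem_singleton] at hb; subst hb
    exact ⟨hi, fun t => Subgroup.mem_sup_left (Subgroup.mem_sup_right (root_mem hD (Rel.simple_lt hD hi) t))⟩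
  · refine (mem_of_reach hD hN D.rank [j] (fun b hb => ?_) a ((hok j hj a ha).resolve_left (by simp [hl, hla]))).2 t
    rw [List.mem_singleton] at hb; subst hb
    exact ⟨hj, fun t => Subgroup.mem_sup_right (root_mem hD (Rel.simple_lt hD hj) t)⟩

theorem short_ok : shortOK chevG2 3 = true ∧ shortOK chevB2 2 = true ∧ shortOK chevF4 2 = true ∧
    shortOK chevD4 1 = true ∧ shortOK chevE6 1 = true ∧ shortOK chevE7 1 = true ∧ shortOK chevE8 1 = true := by
  decide +kernel

theorem both_ok : bothOK chevG2 = true ∧ bothOK chevB2 = true ∧ bothOK chevF4 = true := by decide +kernel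

end CfsgLib.Chev.MonoGen
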